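import Mathlib
import Cfsg.Prelude.Def_Characters
import Cfsg.Agent.Lib.Helper3.CharValues
import Cfsg.Agent.Lib.Helper3.IndFun
import Cfsg.Agent.Lib.Helper15.LinIrr
import Cfsg.Agent.Lib.Helper78.BLGroup
import Cfsg.Agent.Lib.Helper79.Linear
import Cfsg.Agent.Lib.Helper80.PrimeCodeg

/-!
# PF12 package (P3): Peterfalvi (12.5') in abstract form

Pure character theory of a finite group `H`:

* `avg_coset_commutator` : if all nontrivial linear characters of `H` have the same inner product `m`
  with a function `g`, then the average of `g` over every coset `x * H'` with `x ∉ H'` equals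
  `⟨g, 1⟩ - m`;
* `const_off_commutator` : if moreover `g` is a class function whose inner products with the
  nontrivial irreducible characters depend only on the degree, then `g x = ⟨g, 1⟩ - m` for `x ∉ H'`.
-/

set_option autoImplicit false

namespace Cfsg.Agent.Lib.Helper57.PF12

open scoped ComplexConjugate
open Cfsg

section

variable {H : Type*} [Group H]

/-- the character afforded by a homomorphism to `ℂˣ` -/
def homFun (f : H →* ℂˣ) : H → ℂ := fun y => ((f y : ℂˣ) : ℂ)

theorem homFun_apply (f : H →* ℂˣ) (y : H) : homFun f y = ((f y : ℂˣ) : ℂ) := rfl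

theorem homFun_one_apply (f : H →* ℂˣ) : homFun f 1 = 1 := by simp [homFun]

theorem homFun_irr (f : H →* ℂˣ) : IsIrrCharacter H (homFun f) :=
  Cfsg.Agent.Lib.Helper80.isIrrCharacter_of_hom f

theorem homFun_ne_one {f : H →* ℂˣ} (hf : f ≠ 1) : homFun f ≠ (fun _ => 1) := by
  intro h
  apply hf
  ext y
  have := congrFun h y
  simpa [homFun] using this

/-- for `x` outside the commutator subgroup some homomorphism to `ℂˣ` does not kill `x` -/
theorem exists_hom_ne_one [Finite H] {x : H} (hx : x ∉ commutator H) :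
    ∃ f : H →* ℂˣ, f x ≠ 1 := by
  have hcomm : ∀ a b : Abelianization H, a * b = b * a := fun a b => mul_comm a b
  have hu : (Abelianization.of x : Abelianization H) ≠ 1 := by
    intro h
    apply hx
    have := (QuotientGroup.eq_one_iff (N := commutator H) x).mp h
    exact this
  obtain ⟨ψ, hψ⟩ := Cfsg.Agent.Lib.Helper78.bl_exists_ne_one hcomm _ hu
  exact ⟨ψ.comp Abelianization.of, by simpa using hψ⟩

theorem hom_apply_of_mem_commutator (f : H →* ℂˣ) {x : H} (hx : x ∈ commutator H) : f x = 1 := by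
  have := Abelianization.commutator_subset_ker f hx
  simpa [MonoidHom.mem_ker] using this

/-- dual orthogonality for the linear characters of `H` -/
theorem sum_hom_apply [Finite H] [Fintype (H →* ℂˣ)] (u : H) [Decidable (u ∈ commutator H)] :
    ∑ f : H →* ℂˣ, ((f u : ℂˣ) : ℂ) =
      if u ∈ commutator H then ((commutator H).index : ℂ) else 0 := by
  split_ifs with h
  · have h1 : ∀ f : H →* ℂˣ, ((f u : ℂˣ) : ℂ) = 1 := by
      intro f
      rw [hom_apply_of_mem_commutator f h]
      simp
    simp only [h1, Finset.sum_const, Finset.card_univ, nsmul_eq_mul, mul_one]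
    rw [← Nat.card_eq_fintype_card, Cfsg.Agent.Lib.Helper79.card_monoidHom_units]
  · obtain ⟨ψ₀, hψ₀⟩ := exists_hom_ne_one h
    have h1 : ∑ ψ : H →* ℂˣ, ((ψ u : ℂˣ) : ℂ) = ∑ ψ : H →* ℂˣ, (((ψ₀ * ψ) u : ℂˣ) : ℂ) :=
      (Fintype.sum_equiv (Equiv.mulLeft ψ₀) _ _ (fun ψ => rfl)).symm
    have h2 : ∑ ψ : H →* ℂˣ, (((ψ₀ * ψ) u : ℂˣ) : ℂ) =
        ((ψ₀ u : ℂˣ) : ℂ) * ∑ ψ : H →* ℂˣ, ((ψ u : ℂˣ) : ℂ) := by
      rw [Finset.mul_sum]
      refine Finset.sum_congr rfl fun ψ _ => ?_
      simp
    have h3 : (1 - ((ψ₀ u : ℂˣ) : ℂ)) * ∑ ψ : H →* ℂˣ, ((ψ u : ℂˣ) : ℂ) = 0 := by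
      rw [sub_mul, one_mul, ← h2, ← h1, sub_self]
    rcases mul_eq_zero.mp h3 with h' | h'
    · exfalso
      apply hψ₀
      apply Units.ext
      rw [Units.val_one]
      exact (sub_eq_zero.mp h').symm
    · exact h'

theorem conj_homFun [Finite H] (f : H →* ℂˣ) (y : H) : conj (homFun f y) = homFun f y⁻¹ := by
  have hc : IsCharacter H (homFun f) := Cfsg.Agent.Lib.Helper3.isCharacter_of_irr (homFun_irr f)
  have h1 := Cfsg.Agent.Lib.Helper15.linChar_mul_conj hc (homFun_one_apply f) y
  have h2 : homFun f y * homFun f y⁻¹ = 1 := by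
    simp only [homFun]
    rw [← Units.val_mul, ← map_mul, mul_inv_cancel, map_one, Units.val_one]
  have hne : homFun f y ≠ 0 := by
    intro h0
    rw [h0, zero_mul] at h2
    exact zero_ne_one h2
  exact mul_left_cancel₀ hne (h1.trans h2.symm)

end

section main

variable {H : Type*} [Group H] [Fintype H]

/-- **(P3a)** If every nontrivial linear character of `H` has inner product `m` with `g`, then for
`x ∉ H'` the average of `g` over the coset `x H'` is `⟨g, 1⟩ - m`.  (Filter form.) -/
theorem avg_coset_commutator_filter (g : H → ℂ) (m : ℂ)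
    (hm : ∀ θ : H → ℂ, IsIrrCharacter H θ → θ 1 = 1 → θ ≠ (fun _ => 1) → classInner g θ = m)
    (x : H) (hx : x ∉ commutator H) [DecidablePred (fun y : H => y⁻¹ * x ∈ commutator H)] :
    (Nat.card (commutator H) : ℂ)⁻¹ *
        ∑ y : H, (if y⁻¹ * x ∈ commutator H then g y else 0) =
      classInner g (fun _ => 1) - m := by
  classical
  have : Finite (H →* ℂˣ) := Cfsg.Agent.Lib.Helper79.finite_monoidHom_units
  let _ : Fintype (H →* ℂˣ) := Fintype.ofFinite _
  set S : ℂ := ∑ f : H →* ℂˣ, classInner g (homFun f) * homFun f x with hS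
  -- first evaluation
  have hS1 : S = classInner g (fun _ => 1) - m := by
    have hsplit : ∀ f : H →* ℂˣ, classInner g (homFun f) * homFun f x =
        (if f = 1 then classInner g (fun _ => 1) - m else 0) + m * ((f x : ℂˣ) : ℂ) := by
      intro f
      by_cases hf : f = 1
      · subst hf
        have h1 : homFun (1 : H →* ℂˣ) = fun _ => 1 := by
          funext y; simp [homFun]
        rw [if_pos rfl, h1]
        simp
      · rw [if_neg hf, hm _ (homFun_irr f) (homFun_one_apply f) (homFun_ne_one hf), zero_add]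
        rfl
    rw [hS, Finset.sum_congr rfl (fun f _ => hsplit f), Finset.sum_add_distrib,
      Finset.sum_ite_eq' Finset.univ (1 : H →* ℂˣ), if_pos (Finset.mem_univ _), ← Finset.mul_sum,
      sum_hom_apply x, if_neg hx, mul_zero, add_zero]
  -- second evaluation
  have hcardH : (Nat.card H : ℂ) ≠ 0 := by
    simp [Nat.card_eq_fintype_card]
  have hS2 : S = (Nat.card H : ℂ)⁻¹ *
      ∑ y : H, g y * (if y⁻¹ * x ∈ commutator H then ((commutator H).index : ℂ) else 0) := by
    have hterm : ∀ f : H →* ℂˣ, classInner g (homFun f) * homFun f x =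
        (Nat.card H : ℂ)⁻¹ * ∑ y : H, g y * ((f (y⁻¹ * x) : ℂˣ) : ℂ) := by
      intro f
      unfold classInner
      rw [mul_assoc, Finset.sum_mul]
      congr 1
      refine Finset.sum_congr rfl fun y _ => ?_
      rw [conj_homFun f y, mul_assoc]
      congr 1
      simp only [homFun]
      rw [← Units.val_mul, ← map_mul]
    rw [hS, Finset.sum_congr rfl (fun f _ => hterm f), ← Finset.mul_sum, Finset.sum_comm]
    congr 1
    refine Finset.sum_congr rfl fun y _ => ?_
    rw [← Finset.mul_sum, sum_hom_apply (y⁻¹ * x)]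
  have hidx : ((commutator H).index : ℂ) * (Nat.card (commutator H) : ℂ) = (Nat.card H : ℂ) := by
    rw [← Nat.cast_mul, mul_comm, Subgroup.card_mul_index]
  have hcardC : (Nat.card (commutator H) : ℂ) ≠ 0 := by
    have : Nat.card (commutator H) ≠ 0 := Nat.card_pos.ne'
    exact_mod_cast this
  rw [← hS1, hS2]
  have hsum : ∑ y : H, g y * (if y⁻¹ * x ∈ commutator H then ((commutator H).index : ℂ) else 0) =
      ((commutator H).index : ℂ) * ∑ y : H, (if y⁻¹ * x ∈ commutator H then g y else 0) := by
    rw [Finset.mul_sum]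
    refine Finset.sum_congr rfl fun y _ => ?_
    split_ifs <;> ring
  have hidx0 : ((commutator H).index : ℂ) ≠ 0 := by
    intro h0
    rw [h0, zero_mul] at hidx
    exact hcardH hidx.symm
  rw [hsum, ← hidx]
  field_simp

/-- **(P3b)** If `g` is a class function of `H` whose inner products with the nontrivial
irreducible characters depend only on the degree, and `m` is the common inner product with the
nontrivial linear characters, then `g x = ⟨g, 1⟩ - m` for every `x` outside `H'`. -/
theorem const_off_commutator (g : H → ℂ) (hg : IsClassFunction H g)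
    (hdeg : ∀ θ θ' : H → ℂ, IsIrrCharacter H θ → IsIrrCharacter H θ' → θ ≠ (fun _ => 1) →
      θ' ≠ (fun _ => 1) → θ 1 = θ' 1 → classInner g θ = classInner g θ')
    (m : ℂ)
    (hm : ∀ θ : H → ℂ, IsIrrCharacter H θ → θ 1 = 1 → θ ≠ (fun _ => 1) → classInner g θ = m)
    (x : H) (hx : x ∉ commutator H) :
    g x = classInner g (fun _ => 1) - m := by
  classical
  have : Fintype (IrrCharacter H) := Fintype.ofFinite _
  obtain ⟨f₀, hf₀⟩ := exists_hom_ne_one hx
  set β : H → ℂ := homFun f₀ with hβ
  set β' : H → ℂ := homFun f₀⁻¹ with hβ'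
  have hβc : IsCharacter H β := Cfsg.Agent.Lib.Helper3.isCharacter_of_irr (homFun_irr f₀)
  have hβ'c : IsCharacter H β' := Cfsg.Agent.Lib.Helper3.isCharacter_of_irr (homFun_irr f₀⁻¹)
  have hββ' : β' * β = 1 := by
    funext y
    simp only [hβ, hβ', homFun, Pi.mul_apply, Pi.one_apply]
    rw [← Units.val_mul]
    simp
  have hβ'β : β * β' = 1 := by rw [mul_comm]; exact hββ'
  -- the twisting permutation of the irreducible characters
  let e : IrrCharacter H ≃ IrrCharacter H :=
    { toFun := fun χ => ⟨β * χ.1,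
        Cfsg.Agent.Lib.Helper15.isIrrCharacter_lin_mul hβc (homFun_one_apply f₀) χ.2⟩
      invFun := fun χ => ⟨β' * χ.1,
        Cfsg.Agent.Lib.Helper15.isIrrCharacter_lin_mul hβ'c (homFun_one_apply f₀⁻¹) χ.2⟩
      left_inv := fun χ => by
        apply Subtype.ext
        show β' * (β * χ.1) = χ.1
        rw [← mul_assoc, hββ', one_mul]
      right_inv := fun χ => by
        apply Subtype.ext
        show β * (β' * χ.1) = χ.1
        rw [← mul_assoc, hβ'β, one_mul] }
  -- modified coefficients
  let c' : IrrCharacter H → ℂ := fun χ =>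
    if χ.1 = (fun _ => 1) then m else classInner g χ.1
  have h1irr : IsIrrCharacter H (fun _ : H => (1 : ℂ)) := by
    have := homFun_irr (1 : H →* ℂˣ)
    have h1 : homFun (1 : H →* ℂˣ) = fun _ => 1 := by funext y; simp [homFun]
    rwa [h1] at this
  have hc'lin : ∀ χ : IrrCharacter H, χ.1 1 = 1 → c' χ = m := by
    intro χ h1
    show (if χ.1 = (fun _ => 1) then m else classInner g χ.1) = m
    split_ifs with h
    · rfl
    · exact hm χ.1 χ.2 h1 h
  have hc'e : ∀ χ : IrrCharacter H, c' (e χ) = c' χ := by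
    intro χ
    have hdeg1 : (e χ).1 1 = χ.1 1 := by
      show (β * χ.1) 1 = χ.1 1
      rw [Pi.mul_apply, hβ, homFun_one_apply, one_mul]
    by_cases hχ1 : χ.1 1 = 1
    · rw [hc'lin χ hχ1, hc'lin (e χ) (hdeg1.trans hχ1)]
    · have hne : χ.1 ≠ (fun _ => 1) := by
        intro h
        apply hχ1
        rw [h]
      have hne' : (e χ).1 ≠ (fun _ => 1) := by
        intro h
        apply hχ1
        rw [← hdeg1, h]
      show (if (e χ).1 = (fun _ => 1) then m else classInner g (e χ).1) =
        (if χ.1 = (fun _ => 1) then m else classInner g χ.1)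
      rw [if_neg hne, if_neg hne']
      exact hdeg _ _ (e χ).2 χ.2 hne' hne hdeg1
  -- the twisted sum vanishes
  have hzero : ∑ χ : IrrCharacter H, c' χ * χ.1 x = 0 := by
    have h1 : ∑ χ : IrrCharacter H, c' χ * χ.1 x = ∑ χ : IrrCharacter H, c' (e χ) * (e χ).1 x :=
      (Fintype.sum_equiv e _ _ (fun χ => rfl)).symm
    have h2 : ∑ χ : IrrCharacter H, c' (e χ) * (e χ).1 x =
        β x * ∑ χ : IrrCharacter H, c' χ * χ.1 x := by
      rw [Finset.mul_sum]
      refine Finset.sum_congr rfl fun χ _ => ?_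
      rw [hc'e χ]
      show c' χ * (β * χ.1) x = β x * (c' χ * χ.1 x)
      rw [Pi.mul_apply]
      ring
    have h3 : (1 - β x) * ∑ χ : IrrCharacter H, c' χ * χ.1 x = 0 := by
      rw [sub_mul, one_mul, ← h2, ← h1, sub_self]
    rcases mul_eq_zero.mp h3 with h' | h'
    · exfalso
      apply hf₀
      apply Units.ext
      rw [Units.val_one]
      exact (sub_eq_zero.mp h').symm
    · exact h'
  -- expansion of g
  have hexp := Cfsg.Agent.Lib.Helper3.classFunction_expansion' hg
  have hgx : g x = ∑ χ : IrrCharacter H, classInner g χ.1 * χ.1 x := by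
    conv_lhs => rw [hexp]
    simp [Finset.sum_apply]
  have hdiff : ∀ χ : IrrCharacter H, classInner g χ.1 * χ.1 x =
      c' χ * χ.1 x +
        (if χ = ⟨fun _ => 1, h1irr⟩ then classInner g (fun _ => 1) - m else 0) := by
    intro χ
    by_cases h : χ = ⟨fun _ => 1, h1irr⟩
    · subst h
      rw [if_pos rfl]
      show classInner g (fun _ => 1) * 1 =
        (if (fun _ : H => (1 : ℂ)) = (fun _ => 1) then m else classInner g (fun _ => 1)) * 1 + _
      rw [if_pos rfl]
      ring
    · rw [if_neg h, add_zero]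
      have h' : χ.1 ≠ (fun _ => 1) := fun hh => h (Subtype.ext hh)
      show classInner g χ.1 * χ.1 x =
        (if χ.1 = (fun _ => 1) then m else classInner g χ.1) * χ.1 x
      rw [if_neg h']
  rw [hgx, Finset.sum_congr rfl (fun χ _ => hdiff χ), Finset.sum_add_distrib, hzero, zero_add,
    Finset.sum_ite_eq' Finset.univ (⟨fun _ => 1, h1irr⟩ : IrrCharacter H), if_pos (Finset.mem_univ _)]

end main

section glue

variable {H : Type*} [Group H] [Fintype H]

theorem classInner_conj_symm' (a b : H → ℂ) : classInner a b = conj (classInner b a) := by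
  unfold classInner
  rw [map_mul, map_sum, map_inv₀, Complex.conj_natCast]
  congr 1
  refine Finset.sum_congr rfl fun y _ => ?_
  rw [map_mul, Complex.conj_conj, mul_comm]

/-- **(P3a)**, subgroup-sum form: for `x ∉ H'` the average of `g` over `x H'` is `⟨g, 1⟩ - m`. -/
theorem avg_coset_commutator [Fintype (commutator H)] (g : H → ℂ) (m : ℂ)
    (hm : ∀ θ : H → ℂ, IsIrrCharacter H θ → θ 1 = 1 → θ ≠ (fun _ => 1) → classInner g θ = m)
    (x : H) (hx : x ∉ commutator H) :
    (Nat.card (commutator H) : ℂ)⁻¹ * ∑ z : commutator H, g (x * z) =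
      classInner g (fun _ => 1) - m := by
  classical
  rw [← avg_coset_commutator_filter g m hm x hx]
  congr 1
  have h1 : ∑ z : commutator H, g (x * z) =
      ∑ y ∈ (Finset.univ : Finset (commutator H)).map
        ⟨fun z : commutator H => x * (z : H), fun a b hab => Subtype.ext (mul_left_cancel hab)⟩,
        g y := by
    rw [Finset.sum_map]
    rfl
  rw [h1, ← Finset.sum_filter]
  refine Finset.sum_congr ?_ (fun _ _ => rfl)
  ext y
  rw [Finset.mem_map, Finset.mem_filter]
  constructor
  · rintro ⟨z, -, rfl⟩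
    refine ⟨Finset.mem_univ _, ?_⟩
    show (x * (z : H))⁻¹ * x ∈ commutator H
    have : (x * (z : H))⁻¹ * x = (z : H)⁻¹ := by group
    rw [this]
    exact inv_mem z.2
  · rintro ⟨-, hy⟩
    have hmem : x⁻¹ * y ∈ commutator H := by
      have : x⁻¹ * y = (y⁻¹ * x)⁻¹ := by group
      rw [this]
      exact inv_mem hy
    refine ⟨⟨x⁻¹ * y, hmem⟩, Finset.mem_univ _, ?_⟩
    show x * (x⁻¹ * y) = y
    group

/-- the sum over a coset of `H'` of a function all of whose inner products with nontrivial linear
characters agree does not depend on the coset (outside `H'`) -/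
theorem avg_coset_commutator_eq [Fintype (commutator H)] (g : H → ℂ)
    (hlin : ∀ θ θ' : H → ℂ, IsIrrCharacter H θ → IsIrrCharacter H θ' → θ 1 = 1 → θ' 1 = 1 →
      θ ≠ (fun _ => 1) → θ' ≠ (fun _ => 1) → classInner g θ = classInner g θ')
    (x y : H) (hx : x ∉ commutator H) (hy : y ∉ commutator H) :
    ∑ z : commutator H, g (x * z) = ∑ z : commutator H, g (y * z) := by
  obtain ⟨f₀, hf₀⟩ := exists_hom_ne_one hx
  have hf₀1 : f₀ ≠ 1 := by
    intro h
    apply hf₀
    rw [h]
    rfl
  set m : ℂ := classInner g (homFun f₀) with hmdef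
  have hm : ∀ θ : H → ℂ, IsIrrCharacter H θ → θ 1 = 1 → θ ≠ (fun _ => 1) → classInner g θ = m :=
    fun θ hθ h1 hne =>
      hlin θ (homFun f₀) hθ (homFun_irr f₀) h1 (homFun_one_apply f₀) hne (homFun_ne_one hf₀1)
  have h1 := avg_coset_commutator g m hm x hx
  have h2 := avg_coset_commutator g m hm y hy
  have hcardC : (Nat.card (commutator H) : ℂ) ≠ 0 := by
    have : Nat.card (commutator H) ≠ 0 := Nat.card_pos.ne'
    exact_mod_cast this
  have h3 := h1.trans h2.symm
  exact mul_left_cancel₀ (inv_ne_zero hcardC) h3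

/-- **(P3b)**, two-point form: a class function whose inner products with the nontrivial
irreducible characters depend only on the degree is constant outside `H'`. -/
theorem const_off_commutator_eq (g : H → ℂ) (hg : IsClassFunction H g)
    (hdeg : ∀ θ θ' : H → ℂ, IsIrrCharacter H θ → IsIrrCharacter H θ' → θ ≠ (fun _ => 1) →
      θ' ≠ (fun _ => 1) → θ 1 = θ' 1 → classInner g θ = classInner g θ')
    (x y : H) (hx : x ∉ commutator H) (hy : y ∉ commutator H) : g x = g y := by
  obtain ⟨f₀, hf₀⟩ := exists_hom_ne_one hx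
  have hf₀1 : f₀ ≠ 1 := by
    intro h
    apply hf₀
    rw [h]
    rfl
  set m : ℂ := classInner g (homFun f₀) with hmdef
  have hm : ∀ θ : H → ℂ, IsIrrCharacter H θ → θ 1 = 1 → θ ≠ (fun _ => 1) → classInner g θ = m :=
    fun θ hθ h1 hne =>
      hdeg θ (homFun f₀) hθ (homFun_irr f₀) hne (homFun_ne_one hf₀1)
        (h1.trans (homFun_one_apply f₀).symm)
  rw [const_off_commutator g hg hdeg m hm x hx, const_off_commutator g hg hdeg m hm y hy]

end glue

section induced

variable {L : Type*} [Group L] [Fintype L]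

/-- **(P3c)**, induced form of (P3b): `f` a class function of `L`, `H ≤ L`; if
`⟨Ind_H^L θ, f⟩ = ⟨Ind_H^L θ', f⟩` for all nontrivial irreducible `θ, θ'` of `H` of equal degree,
then `f` is constant on `H` minus `H'`. -/
theorem const_off_commutator_ind (H : Subgroup L) [Fintype H] (f : L → ℂ) (hf : IsClassFunction L f)
    (hdeg : ∀ θ θ' : H → ℂ, IsIrrCharacter H θ → IsIrrCharacter H θ' → θ ≠ (fun _ => 1) →
      θ' ≠ (fun _ => 1) → θ 1 = θ' 1 → classInner (indFun H θ) f = classInner (indFun H θ') f)
    (x y : H) (hx : x ∉ commutator H) (hy : y ∉ commutator H) : f x = f y := by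
  have hg : IsClassFunction H (fun h : H => f h) := by
    intro a b
    have := hf (a : L) (b : L)
    simpa using this
  refine const_off_commutator_eq (fun h : H => f h) hg ?_ x y hx hy
  intro θ θ' hθ hθ' hne hne' h1
  have e1 := Cfsg.Agent.Lib.Helper3.frobenius_reciprocity H θ f hf
  have e2 := Cfsg.Agent.Lib.Helper3.frobenius_reciprocity H θ' f hf
  rw [classInner_conj_symm' (fun h : H => f h) θ, classInner_conj_symm' (fun h : H => f h) θ',
    ← e1, ← e2, hdeg θ θ' hθ hθ' hne hne' h1]

/-- **(P3c')**, induced form of (P3a): if `⟨Ind_H^L θ, f⟩ = ⟨Ind_H^L θ', f⟩` for all nontrivial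
LINEAR characters `θ, θ'` of `H`, the sums of `f` over the cosets `x H'`, `x ∈ H` minus `H'`, all
agree. -/
theorem avg_coset_commutator_ind (H : Subgroup L) [Fintype H] [Fintype (commutator H)] (f : L → ℂ)
    (hf : IsClassFunction L f)
    (hlin : ∀ θ θ' : H → ℂ, IsIrrCharacter H θ → IsIrrCharacter H θ' → θ 1 = 1 → θ' 1 = 1 →
      θ ≠ (fun _ => 1) → θ' ≠ (fun _ => 1) →
      classInner (indFun H θ) f = classInner (indFun H θ') f)
    (x y : H) (hx : x ∉ commutator H) (hy : y ∉ commutator H) :
    ∑ z : commutator H, f ((x * z : H) : L) = ∑ z : commutator H, f ((y * z : H) : L) := by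
  refine avg_coset_commutator_eq (fun h : H => f h) ?_ x y hx hy
  intro θ θ' hθ hθ' h1 h1' hne hne'
  have e1 := Cfsg.Agent.Lib.Helper3.frobenius_reciprocity H θ f hf
  have e2 := Cfsg.Agent.Lib.Helper3.frobenius_reciprocity H θ' f hf
  rw [classInner_conj_symm' (fun h : H => f h) θ, classInner_conj_symm' (fun h : H => f h) θ',
    ← e1, ← e2, hlin θ θ' hθ hθ' h1 h1' hne hne']

end induced

end Cfsg.Agent.Lib.Helper57.PF12
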