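import Mathlib
import Cfsg.Prelude.Def_Characters
import Cfsg.Prelude.Def_OddOrderChar
import Cfsg.Agent.S0161
import Cfsg.Agent.Lib.Helper3.CharValues
import Cfsg.Agent.Lib.Helper3.IndFun
import Cfsg.Agent.Lib.Helper74.CharOps
import Cfsg.Agent.Lib.Helper75.Clifford
import Cfsg.Agent.Lib.Helper80.Orthogonality
import Cfsg.Agent.Lib.Helper57.PF12.P3

/-!
# PF12 package (L1) (helper57)

For a normal subgroup `H` of a finite group `L`:

* `norm_indFun`: `‖Ind_H^L θ‖² = |Stab_L(θ) : H|` for `θ ∈ Irr(H)`;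
* `indFun_conj_orth`: `⟨Ind θ, Ind θ̄⟩ = 0` for `1 ≠ θ ∈ Irr(H)` when `|L|` is odd;
* `exists_invariant_linear`: a `u`-invariant nontrivial linear character of `H` when `C_H(u)` is
  not contained in `H'` (`u` of order dividing a prime `p` not dividing `|H|`).
-/

set_option autoImplicit false

namespace Cfsg.Agent.Lib.Helper57.PF12

open scoped ComplexConjugate
open Cfsg

universe u

section

variable {L : Type u} [Group L] [Fintype L] (H : Subgroup L) [hn : H.Normal]

omit [Fintype L] in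
/-- the conjugate of `θ` by `x` equals `θ` iff `x` lies in the stabilizer (as given by `hT`) -/
theorem conjChar_eq_iff (θ : H → ℂ) (T : Subgroup L)
    (hT : ∀ x : L, x ∈ T ↔ ∀ h : H, θ ⟨x * h * x⁻¹, hn.conj_mem h h.2 x⟩ = θ h) (x : L) :
    Cfsg.Agent.Lib.Helper75.conjChar H θ x = θ ↔ x ∈ T := by
  rw [← inv_mem_iff (H := T), hT]
  have hmem : ∀ h : H, x⁻¹ * (h : L) * x ∈ H := by
    intro h
    have := hn.conj_mem h h.2 x⁻¹
    rwa [inv_inv] at this
  have hval : ∀ h : H, Cfsg.Agent.Lib.Helper75.conjChar H θ x h =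
      θ ⟨x⁻¹ * h * x⁻¹⁻¹, hn.conj_mem h h.2 x⁻¹⟩ := by
    intro h
    rw [Cfsg.Agent.Lib.Helper75.conjChar_val H θ x h (hmem h)]
    congr 1
    apply Subtype.ext
    simp
  constructor
  · intro h1 h
    rw [← hval, h1]
  · intro h1
    funext h
    rw [hval, h1]

/-- **(L1a)** `‖Ind_H^L θ‖² = |T| / |H|`, `T` the stabilizer of `θ` in `L`. -/
theorem norm_indFun (θ : H → ℂ) (hθ : IsIrrCharacter H θ) (T : Subgroup L)
    (hT : ∀ x : L, x ∈ T ↔ ∀ h : H, θ ⟨x * h * x⁻¹, hn.conj_mem h h.2 x⟩ = θ h) :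
    classInner (indFun H θ) (indFun H θ) = (Nat.card T : ℂ) / (Nat.card H : ℂ) := by
  classical
  haveI : Fintype H := Fintype.ofFinite H
  have hcl := Cfsg.Agent.Lib.Helper3.isClassFunction_indFun H θ
  rw [Cfsg.Agent.Lib.Helper3.frobenius_reciprocity H θ (indFun H θ) hcl,
    Cfsg.Agent.Lib.Helper75.indFun_res H θ, Cfsg.Agent.Lib.Helper80.classInner_smul_right,
    Cfsg.Agent.Lib.Helper80.classInner_sum_right]
  have hterm : ∀ x : L, classInner θ (Cfsg.Agent.Lib.Helper75.conjChar H θ x) =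
      if x ∈ T then 1 else 0 := by
    intro x
    split_ifs with hx
    · rw [(conjChar_eq_iff H θ T hT x).2 hx]
      exact Cfsg.Agent.Lib.Helper3.classInner_irr_self hθ
    · apply Cfsg.Agent.Lib.Helper3.classInner_irr_ne hθ
        (Cfsg.Agent.Lib.Helper75.isIrrCharacter_conjChar H hθ x)
      intro h
      exact hx ((conjChar_eq_iff H θ T hT x).1 h.symm)
  rw [Finset.sum_congr rfl (fun x _ => hterm x), Finset.sum_boole, map_inv₀,
    Complex.conj_natCast]
  have hcard : ((Finset.univ.filter (fun x : L => x ∈ T)).card : ℂ) = (Nat.card T : ℂ) := by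
    rw [Nat.card_eq_fintype_card, Fintype.card_subtype]
  rw [hcard, div_eq_inv_mul]

/-- **(L1b)** for `|L|` odd and `θ ≠ 1` irreducible, `Ind θ` and `Ind θ̄` are orthogonal. -/
theorem indFun_conj_orth (hodd : Odd (Nat.card L)) (θ : H → ℂ) (hθ : IsIrrCharacter H θ)
    (hθ1 : θ ≠ fun _ => 1) : classInner (indFun H θ) (indFun H (conjFun θ)) = 0 := by
  classical
  haveI : Fintype H := Fintype.ofFinite H
  have hcl := Cfsg.Agent.Lib.Helper3.isClassFunction_indFun H (conjFun θ)
  have hconjirr : IsIrrCharacter H (conjFun θ) := Cfsg.Agent.Lib.Helper74.isIrrCharacter_conj hθ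
  rw [Cfsg.Agent.Lib.Helper3.frobenius_reciprocity H θ (indFun H (conjFun θ)) hcl,
    Cfsg.Agent.Lib.Helper75.indFun_res H (conjFun θ),
    Cfsg.Agent.Lib.Helper80.classInner_smul_right, Cfsg.Agent.Lib.Helper80.classInner_sum_right]
  have hterm : ∀ x : L,
      classInner θ (Cfsg.Agent.Lib.Helper75.conjChar H (conjFun θ) x) = 0 := by
    intro x
    apply Cfsg.Agent.Lib.Helper3.classInner_irr_ne hθ
      (Cfsg.Agent.Lib.Helper75.isIrrCharacter_conjChar H hconjirr x)
    intro h
    apply hθ1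
    -- `B` = conjugation by `x⁻¹` on `H`
    obtain ⟨B, hB⟩ : ∃ B : MulAut H, B = (MulAut.conjNormal x)⁻¹ := ⟨_, rfl⟩
    have h1 : ∀ n : H, θ n = conj (θ (B n)) := by
      intro n
      have := congrFun h n
      rw [hB]
      exact this
    have h2 : ∀ n : H, θ n = θ (B (B n)) := by
      intro n
      rw [h1 n, h1 (B n), Complex.conj_conj]
    have h3 : ∀ (k : ℕ) (n : H), θ n = θ ((B ^ (2 * k)) n) := by
      intro k
      induction k with
      | zero => intro n; simp
      | succ k ih =>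
        intro n
        have e : B ^ (2 * (k + 1)) = B ^ (2 * k) * (B * B) := by
          rw [← pow_two, ← pow_add, Nat.mul_succ]
        rw [e, MulAut.mul_apply, MulAut.mul_apply, ← ih, ← h2]
    -- the order of `B` is odd
    have hBo : Odd (orderOf B) := by
      have hd1 : orderOf B ∣ orderOf x := by
        rw [hB, orderOf_inv]
        exact orderOf_map_dvd (MulAut.conjNormal (H := H)) x
      have hd2 : orderOf x ∣ Nat.card L := orderOf_dvd_natCard x
      exact Odd.of_dvd_nat hodd (hd1.trans hd2)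
    obtain ⟨m, hm⟩ := hBo
    have h4 : B ^ (2 * (m + 1)) = B := by
      have e : 2 * (m + 1) = orderOf B + 1 := by omega
      rw [e, pow_succ, pow_orderOf_eq_one, one_mul]
    have h5 : ∀ n : H, θ n = θ (B n) := by
      intro n
      have := h3 (m + 1) n
      rw [h4] at this
      exact this
    have hreal : ∀ n : H, (θ n).im = 0 := by
      intro n
      have h6 : conj (θ n) = θ n := by
        have := h1 n
        rw [← h5 n] at this
        exact this.symm
      exact Complex.conj_eq_iff_im.mp h6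
    have hoddH : Odd (Nat.card H) :=
      Odd.of_dvd_nat hodd (Subgroup.card_subgroup_dvd_card H)
    exact Cfsg.Agent.S0161.result hoddH ⟨θ, hθ⟩ hreal
  rw [Finset.sum_congr rfl (fun x _ => hterm x), Finset.sum_const_zero, mul_zero]

/-- **(L1c)** a `u`-invariant nontrivial linear character of `H`. -/
theorem exists_invariant_linear (u : L) (p : ℕ) (hp : p.Prime) (hu : u ^ p = 1)
    (hcop : Nat.Coprime p (Nat.card H)) (x : H) (hx : x ∉ commutator H)
    (hxu : (x : L) * u = u * x) :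
    ∃ θ : H → ℂ, IsIrrCharacter H θ ∧ θ 1 = 1 ∧ θ ≠ (fun _ => 1) ∧
      ∀ h : H, θ ⟨u * h * u⁻¹, hn.conj_mem h h.2 u⟩ = θ h := by
  classical
  obtain ⟨lam, hlam⟩ := exists_hom_ne_one hx
  obtain ⟨A, hA⟩ : ∃ A : MulAut H, A = MulAut.conjNormal u := ⟨_, rfl⟩
  have hAp : A ^ p = 1 := by
    rw [hA, ← map_pow, hu, map_one]
  have hAx : A x = x := by
    rw [hA]
    apply Subtype.ext
    rw [MulAut.conjNormal_apply, ← hxu, mul_inv_cancel_right]
  have hAix : ∀ i : ℕ, (A ^ i) x = x := by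
    intro i
    induction i with
    | zero => simp
    | succ i ih => rw [pow_succ, MulAut.mul_apply, hAx, ih]
  let Θ : H →* ℂˣ := ∏ i ∈ Finset.range p, lam.comp ((A ^ i : MulAut H).toMonoidHom)
  have hΘ : ∀ h : H, Θ h = ∏ i ∈ Finset.range p, lam ((A ^ i) h) := by
    intro h
    show (∏ i ∈ Finset.range p, lam.comp ((A ^ i : MulAut H).toMonoidHom)) h = _
    rw [MonoidHom.finsetProd_apply]
    rfl
  have hΘA : ∀ h : H, Θ (A h) = Θ h := by
    intro h
    rw [hΘ, hΘ]
    have e1 : ∀ i : ℕ, lam ((A ^ i) (A h)) = lam ((A ^ (i + 1)) h) := by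
      intro i
      rw [pow_succ, MulAut.mul_apply]
    rw [Finset.prod_congr rfl (fun i _ => e1 i)]
    have e2 := Finset.prod_range_succ' (fun i : ℕ => lam ((A ^ i) h)) p
    have e3 := Finset.prod_range_succ (fun i : ℕ => lam ((A ^ i) h)) p
    rw [e3] at e2
    simp only [hAp, pow_zero] at e2
    exact (mul_right_cancel e2).symm
  have hΘx : Θ x = lam x ^ p := by
    rw [hΘ, Finset.prod_congr rfl (fun i _ => by rw [hAix i]), Finset.prod_const,
      Finset.card_range]
  have hΘx1 : Θ x ≠ 1 := by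
    rw [hΘx]
    intro h1
    apply hlam
    have h2 : lam x ^ Nat.card H = 1 := by
      rw [← map_pow, pow_card_eq_one', map_one]
    have h3 : orderOf (lam x) ∣ Nat.gcd p (Nat.card H) :=
      Nat.dvd_gcd (orderOf_dvd_of_pow_eq_one h1) (orderOf_dvd_of_pow_eq_one h2)
    rw [Nat.Coprime.gcd_eq_one hcop, Nat.dvd_one] at h3
    exact orderOf_eq_one_iff.1 h3
  refine ⟨homFun Θ, homFun_irr Θ, homFun_one_apply Θ, ?_, ?_⟩
  · intro h
    apply hΘx1
    have h1 := congrFun h x
    apply Units.ext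
    rw [Units.val_one]
    exact h1
  · intro h
    have h1 : (⟨u * h * u⁻¹, hn.conj_mem h h.2 u⟩ : H) = A h := by
      rw [hA]
      apply Subtype.ext
      rw [MulAut.conjNormal_apply]
    rw [h1]
    show ((Θ (A h) : ℂˣ) : ℂ) = ((Θ h : ℂˣ) : ℂ)
    rw [hΘA]

end

end Cfsg.Agent.Lib.Helper57.PF12
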