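import Mathlib
import Cfsg.Agent.Lib.Helper57.PF12.P3

/-!
# PF12 package (L1c') (helper57): a `u`-invariant nontrivial homomorphism `H →* ℂˣ`
-/

set_option autoImplicit false

namespace Cfsg.Agent.Lib.Helper57.PF12

open Cfsg

universe u

/-- **(L1c')** a `u`-invariant nontrivial homomorphism `H →* ℂˣ`, when some `x ∈ H` outside `H'`
commutes with `u` and `u ^ p = 1` for a prime `p` not dividing `|H|`. -/
theorem exists_invariant_hom {L : Type u} [Group L] [Finite L] (H : Subgroup L) [hn : H.Normal]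
    (u : L) (p : ℕ) (hp : p.Prime) (hu : u ^ p = 1)
    (hcop : Nat.Coprime p (Nat.card H)) (x : H) (hx : x ∉ commutator H)
    (hxu : (x : L) * u = u * x) :
    ∃ θ : H →* ℂˣ, θ ≠ 1 ∧ ∀ h : H, θ ⟨u * h * u⁻¹, hn.conj_mem h h.2 u⟩ = θ h := by
  classical
  obtain ⟨lam, hlam⟩ := exists_hom_ne_one hx
  obtain ⟨A, hA⟩ : ∃ A : MulAut H, A = MulAut.conjNormal u := ⟨_, rfl⟩
  have hAp : A ^ p = 1 := by
    rw [hA, ← map_pow, hu, map_one]
  have hAx : A x = x := by
    rw [hA]
    apply Subtype.ext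
    rw [MulAut.conjNormal_apply, ← hxu, mul_inv_cancel_right]
  have hAix : ∀ i : ℕ, (A ^ i) x = x := by
    intro i
    induction i with
    | zero => simp
    | succ i ih => rw [pow_succ, MulAut.mul_apply, hAx, ih]
  let Θ : H →* ℂˣ := ∏ i ∈ Finset.range p, lam.comp ((A ^ i : MulAut H).toMonoidHom)
  have hΘ : ∀ h : H, Θ h = ∏ i ∈ Finset.range p, lam ((A ^ i) h) := by
    intro h
    show (∏ i ∈ Finset.range p, lam.comp ((A ^ i : MulAut H).toMonoidHom)) h = _
    rw [MonoidHom.finsetProd_apply]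
    rfl
  have hΘA : ∀ h : H, Θ (A h) = Θ h := by
    intro h
    rw [hΘ, hΘ]
    have e1 : ∀ i : ℕ, lam ((A ^ i) (A h)) = lam ((A ^ (i + 1)) h) := by
      intro i
      rw [pow_succ, MulAut.mul_apply]
    rw [Finset.prod_congr rfl (fun i _ => e1 i)]
    have e2 := Finset.prod_range_succ' (fun i : ℕ => lam ((A ^ i) h)) p
    have e3 := Finset.prod_range_succ (fun i : ℕ => lam ((A ^ i) h)) p
    rw [e3] at e2
    simp only [hAp, pow_zero] at e2
    exact (mul_right_cancel e2).symm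
  have hΘx : Θ x = lam x ^ p := by
    rw [hΘ, Finset.prod_congr rfl (fun i _ => by rw [hAix i]), Finset.prod_const,
      Finset.card_range]
  have hΘx1 : Θ x ≠ 1 := by
    rw [hΘx]
    intro h1
    apply hlam
    have h2 : lam x ^ Nat.card H = 1 := by
      rw [← map_pow, pow_card_eq_one', map_one]
    have h3 : orderOf (lam x) ∣ Nat.gcd p (Nat.card H) :=
      Nat.dvd_gcd (orderOf_dvd_of_pow_eq_one h1) (orderOf_dvd_of_pow_eq_one h2)
    rw [Nat.Coprime.gcd_eq_one hcop, Nat.dvd_one] at h3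
    exact orderOf_eq_one_iff.1 h3
  refine ⟨Θ, ?_, ?_⟩
  · intro h
    apply hΘx1
    rw [h]
    rfl
  · intro h
    have h1 : (⟨u * h * u⁻¹, hn.conj_mem h h.2 u⟩ : H) = A h := by
      rw [hA]
      apply Subtype.ext
      rw [MulAut.conjNormal_apply]
    rw [h1, hΘA]

end Cfsg.Agent.Lib.Helper57.PF12
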