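import Mathlib
import Cfsg.Agent.Lib.Helper4.PF12.LSideB
import Cfsg.Agent.Lib.Helper3.PF12.Congruence
import Cfsg.Agent.Lib.Helper3.IndFun
import Cfsg.Agent.Lib.Helper3.CopConj
import Cfsg.Agent.Lib.Helper25.Dade

/-!
# PF12 package (X1I) (helper57): the cross term

`⟨τ_N α, τ_L Ind_F^L (φ - φ')⟩ = 0` for `F = H ⟨u⟩`, `φ, φ'` two extensions to `F` of a
nontrivial linear character `θ₁` of `H`, in the configuration of the character core
(`R_L` trivial on `F ∖ H`, `R_N(u^i) = C_H(u^i)`).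
-/

set_option autoImplicit false

namespace Cfsg.Agent.Lib.Helper57.PF12

open Cfsg Cfsg.Agent.Lib.Helper4.PF12 Cfsg.Agent.Lib.Helper3.PF12
open scoped ComplexConjugate

universe u

/-- the sum of the values of a nontrivial homomorphism to `ℂˣ` over a finite group vanishes -/
theorem sum_hom_eq_zero {H : Type*} [Group H] [Fintype H] (θ : H →* ℂˣ) (hθ : θ ≠ 1) :
    ∑ h : H, ((θ h : ℂˣ) : ℂ) = 0 := by
  have hex : ∃ h₀ : H, θ h₀ ≠ 1 := by
    by_contra hcon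
    push Not at hcon
    apply hθ
    ext h
    rw [hcon h]
    rfl
  obtain ⟨h₀, hh₀⟩ := hex
  have h1 : ∑ h : H, ((θ h : ℂˣ) : ℂ) = ∑ h : H, ((θ (h₀ * h) : ℂˣ) : ℂ) :=
    (Fintype.sum_equiv (Equiv.mulLeft h₀) _ _ (fun h => rfl)).symm
  have h2 : ∑ h : H, ((θ (h₀ * h) : ℂˣ) : ℂ) = ((θ h₀ : ℂˣ) : ℂ) * ∑ h : H, ((θ h : ℂˣ) : ℂ) := by
    rw [Finset.mul_sum]
    refine Finset.sum_congr rfl fun h _ => ?_
    rw [map_mul, Units.val_mul]
  have h3 : (1 - ((θ h₀ : ℂˣ) : ℂ)) * ∑ h : H, ((θ h : ℂˣ) : ℂ) = 0 := by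
    rw [sub_mul, one_mul, ← h2, ← h1, sub_self]
  rcases mul_eq_zero.mp h3 with h' | h'
  · exfalso
    apply hh₀
    apply Units.ext
    rw [Units.val_one]
    exact (sub_eq_zero.mp h').symm
  · exact h'

/-- **(X1I)** the cross term. -/
theorem cross_term {G : Type u} [Group G] [Fintype G] (L N : Subgroup G) [Fintype L] [Fintype N]
    (H : Subgroup L) [hHn : H.Normal] (K : Subgroup N) (AL AN : Set G) (RL RN : G → Subgroup G)
    (hDL : DadeHypothesis AL L RL) (hDN : DadeHypothesis AN N RN)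
    (hAN : ∀ x : N, (x : G) ∈ AN ↔ x ∈ K ∧ x ≠ 1)
    (u : L) (p : ℕ) (hp : p.Prime) (hu : orderOf u = p) (hcop : Nat.Coprime p (Nat.card H))
    (huN : (u : G) ∈ N) (huK : (⟨(u : G), huN⟩ : N) ∈ K)
    (hFA : ∀ x : L, x ∈ H ⊔ Subgroup.zpowers u → x ≠ 1 → (x : G) ∈ AL)
    (hRL : ∀ x : L, x ∈ H ⊔ Subgroup.zpowers u → x ∉ H → RL (x : G) = ⊥)
    (hRN : ∀ i : ℕ, 0 < i → i < p →
      RN ((u : G) ^ i) = (H.map L.subtype) ⊓ Subgroup.centralizer {(u : G) ^ i})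
    (α : N → ℂ) (hα : IsClassFunction N α)
    (θ₁ : H →* ℂˣ) (hθ₁ : θ₁ ≠ 1)
    (φ φ' : ↥(H ⊔ Subgroup.zpowers u) →* ℂˣ)
    (hφ : ∀ (h : L) (hh : h ∈ H), φ ⟨h, Subgroup.mem_sup_left hh⟩ = θ₁ ⟨h, hh⟩)
    (hφ' : ∀ (h : L) (hh : h ∈ H), φ' ⟨h, Subgroup.mem_sup_left hh⟩ = θ₁ ⟨h, hh⟩) :
    classInner (dadeIsometry AN N RN α)
      (dadeIsometry AL L RL (indFun (H ⊔ Subgroup.zpowers u)
        (fun x => ((φ x : ℂˣ) : ℂ) - ((φ' x : ℂˣ) : ℂ)))) = 0 := by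
  classical
  haveI : Fintype ↥H := Fintype.ofFinite _
  haveI : Fintype ↥(H ⊔ Subgroup.zpowers u) := Fintype.ofFinite _
  obtain ⟨δ, hδ⟩ : ∃ δ : ↥(H ⊔ Subgroup.zpowers u) → ℂ,
      δ = fun x => ((φ x : ℂˣ) : ℂ) - ((φ' x : ℂˣ) : ℂ) := ⟨_, rfl⟩
  rw [← hδ]
  have hδ1 : δ 1 = 0 := by
    rw [hδ]
    simp
  have hβc : IsClassFunction L (indFun (H ⊔ Subgroup.zpowers u) δ) :=
    Cfsg.Agent.Lib.Helper3.isClassFunction_indFun _ _
  have hβA := indFun_vanish_off hDL (H ⊔ Subgroup.zpowers u) hFA δ hδ1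
  obtain ⟨χ, hχdef⟩ : ∃ χ : G → ℂ, χ = dadeIsometry AN N RN α := ⟨_, rfl⟩
  rw [← hχdef]
  have hχ : IsClassFunction G χ := by
    rw [hχdef]
    exact Cfsg.Agent.Lib.Helper25.isClassFunction_dadeIsometry hDN α hα
  rw [← Cfsg.Agent.Lib.Helper80.classInner_conj_symm, classInner_dade_rho hDL _ hβc hβA χ hχ,
    Cfsg.Agent.Lib.Helper3.frobenius_reciprocity (H ⊔ Subgroup.zpowers u) δ _
      (isClassFunction_dadeRho hDL hχ)]
  suffices hmain : classInner δ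
      (fun x : ↥(H ⊔ Subgroup.zpowers u) => dadeRho AL L RL χ (x : L)) = 0 by
    rw [hmain, map_zero]
  -- `u ∉ H`
  have huH : u ∉ H := by
    intro h
    have h1 : orderOf u ∣ Nat.card H := Subgroup.orderOf_dvd_natCard H h
    rw [hu] at h1
    have h2 : p ∣ Nat.gcd p (Nat.card H) := Nat.dvd_gcd dvd_rfl h1
    rw [Nat.Coprime.gcd_eq_one hcop, Nat.dvd_one] at h2
    exact hp.one_lt.ne' h2
  -- the values of `ρ χ` on the cosets `H u^i`
  have hval : ∀ i : ℕ, 0 < i → i < p → ∀ h : H,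
      dadeRho AL L RL χ ((h : L) * u ^ i) = α ⟨(u : G) ^ i, N.pow_mem huN i⟩ := by
    intro i hi0 hip h
    have hxF : (h : L) * u ^ i ∈ H ⊔ Subgroup.zpowers u := mul_pow_mem_sup H u h h.2 i
    have hndvd : ¬ p ∣ i := Nat.not_dvd_of_pos_of_lt hi0 hip
    have hxH : (h : L) * u ^ i ∉ H := by
      intro hmem
      have h1 : u ^ i ∈ H := by
        have h2 := H.mul_mem (H.inv_mem h.2) hmem
        rwa [inv_mul_cancel_left] at h2
      have h3 := zpow_mem_imp_dvd H u hp hu huH (i : ℤ) (by rwa [zpow_natCast])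
      exact hndvd (Int.natCast_dvd_natCast.1 h3)
    have hx1 : (h : L) * u ^ i ≠ 1 := fun e => hxH (e ▸ H.one_mem)
    rw [dadeRho_of_mem AL RL _ (hFA _ hxF hx1), cosetAvg_bot RL _ _ (hRL _ hxF hxH)]
    have hord : orderOf (u ^ i) = p := by
      rw [orderOf_pow' u hi0.ne', hu, Nat.Coprime.gcd_eq_one
        ((Nat.Prime.coprime_iff_not_dvd hp).2 hndvd), Nat.div_one]
    have hnorm : u ^ i ∈ Subgroup.normalizer (H : Set L) := by
      rw [Subgroup.normalizer_eq_top]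
      exact Subgroup.mem_top _
    obtain ⟨v, hv, c, hc, hcomm, hconj⟩ :=
      Cfsg.Agent.Lib.Helper3.CopConj.exists_conj_mem_centralizer_coset H (u ^ i) hnorm
        (by rw [hord]; exact hcop) (h : L) h.2
    have ha₀ : ((⟨(u : G) ^ i, N.pow_mem huN i⟩ : N) : G) ∈ AN := by
      rw [hAN]
      refine ⟨?_, ?_⟩
      · have e : (⟨(u : G) ^ i, N.pow_mem huN i⟩ : N) = (⟨(u : G), huN⟩ : N) ^ i := rfl
        rw [e]
        exact K.pow_mem huK i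
      · intro e
        have e' : (u : G) ^ i = 1 := congrArg Subtype.val e
        have e'' : u ^ i = 1 := Subtype.ext e'
        have h4 := orderOf_dvd_of_pow_eq_one e''
        rw [hu] at h4
        exact hndvd h4
    have hcG : ((c : L) : G) * (u : G) ^ i = (u : G) ^ i * ((c : L) : G) :=
      congrArg Subtype.val hcomm.eq
    have hu₀ : ((c : L) : G) ∈ RN ((u : G) ^ i) := by
      rw [hRN i hi0 hip]
      refine Subgroup.mem_inf.2 ⟨Subgroup.mem_map_of_mem _ hc, ?_⟩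
      rw [Subgroup.mem_centralizer_iff]
      intro g hg
      rw [Set.mem_singleton_iff] at hg
      rw [hg]
      exact hcG.symm
    have hx₀ : ((v : L) : G) * (((h : L) * u ^ i : L) : G) * ((v : L) : G)⁻¹ =
        ((⟨(u : G) ^ i, N.pow_mem huN i⟩ : N) : G) * ((c : L) : G) := by
      have h1 : ((v * ((h : L) * u ^ i) * v⁻¹ : L) : G) = ((c * u ^ i : L) : G) :=
        congrArg Subtype.val hconj
      rw [← hcG]
      exact h1
    rw [hχdef]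
    exact Cfsg.Agent.Lib.Helper25.dadeIsometry_apply hDN α hα _ _ ha₀ _ _ hu₀ hx₀
  have hsumθ := sum_hom_eq_zero θ₁ hθ₁
  unfold classInner
  rw [sum_sup_zpowers H u hp hu huH, Finset.sum_eq_zero, mul_zero]
  intro i hi
  rw [Finset.mem_range] at hi
  rcases Nat.eq_zero_or_pos i with h0 | h0
  · subst h0
    apply Finset.sum_eq_zero
    intro h _
    have e : (⟨(h : L) * u ^ 0, mul_pow_mem_sup H u h h.2 0⟩ : ↥(H ⊔ Subgroup.zpowers u)) =
        ⟨(h : L), Subgroup.mem_sup_left h.2⟩ := Subtype.ext (by simp)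
    have e0 : δ ⟨(h : L) * u ^ 0, mul_pow_mem_sup H u h h.2 0⟩ = 0 := by
      rw [e, hδ]
      show ((φ ⟨(h : L), Subgroup.mem_sup_left h.2⟩ : ℂˣ) : ℂ) -
        ((φ' ⟨(h : L), Subgroup.mem_sup_left h.2⟩ : ℂˣ) : ℂ) = 0
      rw [hφ h h.2, hφ' h h.2, sub_self]
    rw [e0, zero_mul]
  · obtain ⟨u', hu'⟩ : ∃ u' : ↥(H ⊔ Subgroup.zpowers u),
        u' = ⟨u, Subgroup.mem_sup_right (Subgroup.mem_zpowers u)⟩ := ⟨_, rfl⟩
    have hterm : ∀ h : H, δ ⟨(h : L) * u ^ i, mul_pow_mem_sup H u h h.2 i⟩ *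
        conj (dadeRho AL L RL χ ((h : L) * u ^ i)) =
        ((θ₁ h : ℂˣ) : ℂ) * (((((φ u') ^ i : ℂˣ) : ℂ) - (((φ' u') ^ i : ℂˣ) : ℂ)) *
          conj (α ⟨(u : G) ^ i, N.pow_mem huN i⟩)) := by
      intro h
      rw [hval i h0 hi h]
      have e : (⟨(h : L) * u ^ i, mul_pow_mem_sup H u h h.2 i⟩ : ↥(H ⊔ Subgroup.zpowers u)) =
          ⟨(h : L), Subgroup.mem_sup_left h.2⟩ * u' ^ i := by
        rw [hu']
        rfl
      have e1 : δ ⟨(h : L) * u ^ i, mul_pow_mem_sup H u h h.2 i⟩ =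
          ((θ₁ h : ℂˣ) : ℂ) * ((((φ u') ^ i : ℂˣ) : ℂ) - (((φ' u') ^ i : ℂˣ) : ℂ)) := by
        rw [e, hδ]
        show ((φ (⟨(h : L), Subgroup.mem_sup_left h.2⟩ * u' ^ i) : ℂˣ) : ℂ) -
          ((φ' (⟨(h : L), Subgroup.mem_sup_left h.2⟩ * u' ^ i) : ℂˣ) : ℂ) = _
        rw [map_mul, map_mul, map_pow, map_pow, hφ h h.2, hφ' h h.2, Units.val_mul,
          Units.val_mul, mul_sub]
      rw [e1, mul_assoc]
    rw [Finset.sum_congr rfl (fun h _ => hterm h), ← Finset.sum_mul, hsumθ, zero_mul]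

end Cfsg.Agent.Lib.Helper57.PF12
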